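import Cfsg.Agent.Lib.Suz.Partition
import Cfsg.Prelude.Def_KGroupFacts

/-! The Schur multiplier of the Suzuki groups with `q ≥ 32` is trivial. -/

set_option autoImplicit false

namespace Cfsg.Agent.Lib.Suz

open Matrix MulAction
open scoped commutatorElement

variable {F : Type*} [Field F] [Fintype F] [CharP F 2] {m : ℕ}

section Pairings

variable {A : Type*} [CommGroup A] {β : F → F → A}

omit [Fintype F] in
theorem pairing_one (hr : ∀ a b b', β a (b + b') = β a b * β a b') (d : F) :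
    β 1 d * β 1 d = 1 ∧ β 1 (0 : F) = 1 := by
  have h0 : β 1 (0 : F) = 1 := by
    have := hr 1 0 0
    rwa [add_zero, eq_comm, mul_eq_left] at this
  exact ⟨by rw [← hr, add_self0, h0], h0⟩

omit [Fintype F] in
theorem pairing_zero_of_weight (w : F → F) (hw0 : ∀ x, x ≠ 0 → w x ≠ 0)
    (hl : ∀ a a' b, β (a + a') b = β a b * β a' b)
    (hr : ∀ a b b', β a (b + b') = β a b * β a b')
    (hinv : ∀ x a b, x ≠ 0 → β (x * a) (w x * b) = β a b)
    (t : F) (ht0 : t ≠ 0) (ht1 : 1 + t ≠ 0) (ht : 1 / w (1 + t) + 1 + 1 / w t ≠ 0) (a b : F) :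
    β a b = 1 := by
  have hf : ∀ a b, a ≠ 0 → β a b = β 1 (b / w a) := by
    intro a b ha
    have := hinv a 1 (b / w a) ha
    rwa [mul_one, mul_div_cancel₀ _ (hw0 a ha)] at this
  have key : ∀ d, β 1 d = 1 := by
    intro d
    set e := d / (1 / w (1 + t) + 1 + 1 / w t) with he
    have h1 := hl 1 t e
    rw [hf (1 + t) e ht1, hf t e ht0] at h1
    have hd : d = e / w (1 + t) + (e + e / w t) := by
      have : e * (1 / w (1 + t) + 1 + 1 / w t) = d := by rw [he, div_mul_cancel₀ _ ht]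
      rw [← this]; ring
    rw [hd, hr, hr, ← h1]
    exact (pairing_one hr _).1
  rcases eq_or_ne a 0 with rfl | ha
  · have := hl 0 0 b
    rwa [add_zero, eq_comm, mul_eq_left] at this
  · rw [hf a b ha, key]

theorem pairing_linear_zero (c : Ctx F m) (hl : ∀ a a' b, β (a + a') b = β a b * β a' b)
    (hr : ∀ a b b', β a (b + b') = β a b * β a b')
    (hinv : ∀ x a b, x ≠ 0 → β (x * a) (x * b) = β a b) (a b : F) : β a b = 1 := by
  obtain ⟨t, ht0, ht1⟩ := c.exists_k0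
  have h1t : 1 + t ≠ 0 := fun e => ht1 (by
    have := eq_neg_of_add_eq_zero_right e; rwa [CharTwo.neg_eq] at this)
  refine pairing_zero_of_weight id (fun x hx => hx) hl hr hinv t ht0 h1t ?_ a b
  intro e
  have e' : t ^ 2 + t + 1 = 0 := by
    simp only [id] at e
    field_simp at e
    have h2 : (2 : F) = 0 := two0
    linear_combination e - t * h2
  have hθ := c.tits t
  have e'' := congrArg (th F m) e'
  rw [map_add, map_add, map_pow, map_one, map_zero] at e''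
  have h2 : (2 : F) = 0 := two0
  have hp : (th F m t - t) * (th F m t - t ^ 2) = 0 := by
    linear_combination e'' + (-th F m t + t - 1) * e'
  rcases mul_eq_zero.1 hp with h | h
  · rcases tits_fixed c.tits (sub_eq_zero.1 h) with h | h
    exacts [ht0 h, ht1 h]
  · have h4 := congrArg (th F m) (sub_eq_zero.1 h)
    rw [map_pow, hθ, sub_eq_zero.1 h] at h4
    have ht3 : t ^ 3 = 1 := by linear_combination (t - 1) * e'
    have : t * t = t * 1 := by
      calc t * t = t ^ 2 := (sq t).symm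
        _ = (t ^ 2) ^ 2 := h4
        _ = t ^ 3 * t := by ring
        _ = t * 1 := by rw [ht3, one_mul, mul_one]
    exact ht1 (mul_left_cancel₀ ht0 this)

theorem exists_good_point (c : Ctx F m) (hm2 : 2 ≤ m) : ∃ t : F, t ≠ 0 ∧ 1 + t ≠ 0 ∧
    1 / ((1 + t) * th F m (1 + t)) + 1 + 1 / (t * th F m t) ≠ 0 := by
  classical
  by_contra hcon
  push Not at hcon
  open Polynomial in
  let N : Polynomial F := X * X ^ 2 ^ (m + 1) + (1 + X) * (1 + X ^ 2 ^ (m + 1)) * (X * X ^ 2 ^ (m + 1)) +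
    (1 + X) * (1 + X ^ 2 ^ (m + 1))
  have heval : ∀ t : F, N.eval t =
      t * th F m t + (1 + t) * (1 + th F m t) * (t * th F m t) + (1 + t) * (1 + th F m t) := by
    intro t; simp [N, th_apply]
  have hdeg : N.natDegree ≤ 2 + 2 * 2 ^ (m + 1) := by
    have : 1 ≤ 2 ^ (m + 1) := Nat.one_le_two_pow
    simp only [N]
    compute_degree
    all_goals omega
  have hN : N ≠ 0 := by
    intro h
    have := heval 0
    rw [h] at this
    simp at this
  have hroot : (Finset.univ \ {0, 1} : Finset F).val ⊆ N.roots := by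
    intro t ht
    rw [Finset.mem_val, Finset.mem_sdiff] at ht
    simp only [Finset.mem_univ, Finset.mem_insert, Finset.mem_singleton, true_and, not_or] at ht
    obtain ⟨ht0, ht1⟩ := ht
    have h1t : 1 + t ≠ 0 := fun e => ht1 (by
      have := eq_neg_of_add_eq_zero_right e; rwa [CharTwo.neg_eq] at this)
    have hθ0 : th F m t ≠ 0 := (_root_.map_ne_zero _).2 ht0
    have hθ1 : 1 + th F m t ≠ 0 := by
      rw [← map_one (th F m), ← map_add]; exact (_root_.map_ne_zero _).2 h1t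
    have e := hcon t ht0 h1t
    rw [map_add, map_one] at e
    rw [Polynomial.mem_roots hN, Polynomial.IsRoot.def, heval]
    field_simp at e
    linear_combination e
  have hcard : (Finset.univ \ {0, 1} : Finset F).card ≤ 2 + 2 * 2 ^ (m + 1) :=
    (Multiset.card_le_card (Multiset.le_iff_subset (Finset.univ \ {0, 1} : Finset F).nodup |>.2 hroot)).trans
      ((Polynomial.card_roots' N).trans hdeg)
  have h2 := Finset.le_card_sdiff ({0, 1} : Finset F) Finset.univ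
  rw [Finset.card_univ, c.hF] at h2
  have h3 : ({0, 1} : Finset F).card ≤ 2 := Finset.card_le_two
  obtain ⟨j, rfl⟩ : ∃ j, m = j + 2 := ⟨m - 2, by omega⟩
  have h4 : 2 ^ j ≥ 1 := Nat.one_le_two_pow
  have h5 : 2 ^ (2 * (j + 2) + 1) = 32 * (2 ^ j * 2 ^ j) := by
    rw [show 2 * (j + 2) + 1 = j + j + 5 by ring, pow_add, pow_add]; ring
  have h6 : 2 ^ (j + 2 + 1) = 8 * 2 ^ j := by
    rw [show j + 2 + 1 = j + 3 by ring, pow_add]; ring
  have h7 : 2 ^ j ≤ 2 ^ j * 2 ^ j := Nat.le_mul_self _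
  omega

theorem pairing_twisted_zero (c : Ctx F m) (hm2 : 2 ≤ m) (hl : ∀ a a' b, β (a + a') b = β a b * β a' b)
    (hr : ∀ a b b', β a (b + b') = β a b * β a b')
    (hinv : ∀ x a b, x ≠ 0 → β (x * a) (x * th F m x * b) = β a b) (a b : F) : β a b = 1 := by
  obtain ⟨t, ht0, ht1, ht⟩ := exists_good_point c hm2
  exact pairing_zero_of_weight (fun x => x * th F m x)
    (fun x hx => mul_ne_zero hx ((_root_.map_ne_zero _).2 hx)) hl hr hinv t ht0 ht1 ht a b

end Pairings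

section Comm

variable {G : Type*} [Group G]

theorem comm_mul_left (x y w : G) : ⁅x * y, w⁆ = x * ⁅y, w⁆ * x⁻¹ * ⁅x, w⁆ := by
  simp only [commutatorElement_def]; group

theorem comm_mul_right (w x y : G) : ⁅w, x * y⁆ = ⁅w, x⁆ * (x * ⁅w, y⁆ * x⁻¹) := by
  simp only [commutatorElement_def]; group

theorem comm_congr {Q : Type*} [Group Q] (σ : G →* Q) (hc : σ.ker ≤ Subgroup.center G) {x x' y y' : G}
    (hx : σ x = σ x') (hy : σ y = σ y') : ⁅x, y⁆ = ⁅x', y'⁆ := by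
  have h1 : x'⁻¹ * x ∈ Subgroup.center G := hc (by rw [MonoidHom.mem_ker, map_mul, map_inv, hx, inv_mul_cancel])
  have h2 : y'⁻¹ * y ∈ Subgroup.center G := hc (by rw [MonoidHom.mem_ker, map_mul, map_inv, hy, inv_mul_cancel])
  obtain ⟨z, hz, rfl⟩ : ∃ z ∈ Subgroup.center G, x = x' * z := ⟨_, h1, by rw [mul_inv_cancel_left]⟩
  obtain ⟨w, hw, rfl⟩ : ∃ w ∈ Subgroup.center G, y = y' * w := ⟨_, h2, by rw [mul_inv_cancel_left]⟩
  have hz' : ∀ g : G, ⁅z, g⁆ = 1 := fun g => commutatorElement_eq_one_iff_mul_comm.2 (Subgroup.mem_center_iff.1 hz g).symm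
  have hw' : ∀ g : G, ⁅g, w⁆ = 1 := fun g => commutatorElement_eq_one_iff_mul_comm.2 (Subgroup.mem_center_iff.1 hw g)
  rw [comm_mul_left, hz', mul_one, mul_inv_cancel, one_mul, comm_mul_right, hw', mul_one, mul_inv_cancel, mul_one]

/-- The transfer argument: a central element of the derived group. -/
theorem pow_index_mem_commutator (H : Subgroup G) [H.FiniteIndex] {z : G} (hz : z ∈ Subgroup.center G)
    (hzc : z ∈ commutator G) : z ^ H.index ∈ ⁅H, H⁆ := by
  let of : ↥H →* Abelianization ↥H := Abelianization.of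
  have key : ∀ (k : ℕ) (g₀ : G), g₀⁻¹ * z ^ k * g₀ ∈ H → g₀⁻¹ * z ^ k * g₀ = z ^ k := fun k g₀ _ => by
    rw [mul_assoc, ← Subgroup.mem_center_iff.1 (Subgroup.pow_mem _ hz k) g₀, inv_mul_cancel_left]
  have h1 := MonoidHom.transfer_eq_pow of z key
  have h2 : MonoidHom.transfer of z = 1 := Abelianization.commutator_subset_ker (MonoidHom.transfer of) hzc
  rw [h2, eq_comm, ← MonoidHom.mem_ker, Abelianization.ker_of] at h1
  have h3 := Subgroup.mem_map_of_mem H.subtype h1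
  rw [commutator_def, Subgroup.map_commutator, ← MonoidHom.range_eq_map, Subgroup.range_subtype] at h3
  exact h3

end Comm

variable (c : Ctx F m)

include c

theorem derived_sylow_meets_ker (hm2 : 2 ≤ m) {Γ : Type*} [Group Γ] (σ : Γ →* ↥(Cfsg.Sz F m))
    (hσ : Function.Surjective σ) (hc : σ.ker ≤ Subgroup.center Γ) {z : Γ} (hz : σ z = 1)
    (hzd : z ∈ ⁅(uSub c).comap σ, (uSub c).comap σ⁆) : z = 1 := by
  classical
  let u : F → F → Γ := fun a b => Function.surjInv hσ (uG c a b)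
  have hu : ∀ a b, σ (u a b) = uG c a b := fun a b => Function.surjInv_eq hσ _
  let tt : Fˣ → Γ := fun h => Function.surjInv hσ (tHom c h)
  have htt : ∀ h, σ (tt h) = tHom c h := fun h => Function.surjInv_eq hσ _
  have hcen : ∀ x, σ x = 1 → ∀ g, g * x = x * g := fun x hx => Subgroup.mem_center_iff.1 (hc hx)
  have hconj : ∀ h a b, σ (tt h * u a b * (tt h)⁻¹) =
      σ (u (th F m h * a) ((h : F) ^ 2 * th F m h * b)) := fun h a b => by
    rw [map_mul, map_mul, map_inv, htt, hu, hu, tHom_conj_uG]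
  have hconj_comm : ∀ (g x y : Γ), ⁅g * x * g⁻¹, g * y * g⁻¹⁆ = g * ⁅x, y⁆ * g⁻¹ := fun g x y => by
    simp only [commutatorElement_def]; group
  letI : CommGroup ↥(Subgroup.center Γ) :=
    { (inferInstance : Group ↥(Subgroup.center Γ)) with
      mul_comm := fun x y => Subtype.ext (Subgroup.mem_center_iff.1 y.2 x.1) }
  -- the preimage of the centre of `U` is abelian
  have h1 : ∀ b b', ⁅u 0 b, u 0 b'⁆ = 1 := by
    have hσ1 : ∀ b b', σ ⁅u 0 b, u 0 b'⁆ = 1 := fun b b' => by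
      rw [map_commutatorElement, hu, hu, commutatorElement_eq_one_iff_mul_comm, uG_mul, uG_mul,
        add_comm b b']
    let β : F → F → Subgroup.center Γ := fun b b' => ⟨⁅u 0 b, u 0 b'⁆, hc (hσ1 b b')⟩
    have hl : ∀ b1 b2 b', β (b1 + b2) b' = β b1 b' * β b2 b' := by
      intro b1 b2 b'
      apply Subtype.ext
      show ⁅u 0 (b1 + b2), u 0 b'⁆ = ⁅u 0 b1, u 0 b'⁆ * ⁅u 0 b2, u 0 b'⁆
      rw [comm_congr σ hc (x := u 0 (b1 + b2)) (x' := u 0 b1 * u 0 b2)
        (by rw [map_mul, hu, hu, hu, uG_mul]; simp) rfl, comm_mul_left, hcen _ (hσ1 b2 b'),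
        mul_inv_cancel_right, hcen _ (hσ1 b2 b')]
    have hr : ∀ b b1 b2, β b (b1 + b2) = β b b1 * β b b2 := by
      intro b b1 b2
      have e : ∀ p q, β q p = (β p q)⁻¹ := fun p q =>
        Subtype.ext (commutatorElement_inv (u 0 p) (u 0 q)).symm
      rw [e (b1 + b2) b, hl, _root_.mul_inv_rev, ← e b1 b, ← e b2 b]
      exact Subtype.ext (Subgroup.mem_center_iff.1 (β b b1).2 _)
    intro b b'
    have := pairing_linear_zero c hl hr (fun x p q hx => by
      obtain ⟨-, ⟨h, hh⟩, -⟩ := theta_units_surj c x hx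
      apply Subtype.ext
      show ⁅u 0 (x * p), u 0 (x * q)⁆ = ⁅u 0 p, u 0 q⁆
      have ep : σ (u 0 (x * p)) = σ (tt h * u 0 p * (tt h)⁻¹) := by rw [hconj, mul_zero, hh]
      have eq' : σ (u 0 (x * q)) = σ (tt h * u 0 q * (tt h)⁻¹) := by rw [hconj, mul_zero, hh]
      rw [comm_congr σ hc ep eq', hconj_comm, hcen _ (hσ1 p q), mul_inv_cancel_right]) b b'
    exact congrArg Subtype.val this
  -- it is central in the preimage of `U`
  have h2 : ∀ a b, ⁅u a 0, u 0 b⁆ = 1 := by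
    have hσ2 : ∀ a b, σ ⁅u a 0, u 0 b⁆ = 1 := fun a b => by
      rw [map_commutatorElement, hu, hu, commutatorElement_eq_one_iff_mul_comm, uG_mul, uG_mul]
      congr 1 <;> simp
    let β : F → F → Subgroup.center Γ := fun a b => ⟨⁅u a 0, u 0 b⁆, hc (hσ2 a b)⟩
    have hr : ∀ a b b', β a (b + b') = β a b * β a b' := by
      intro a b b'
      apply Subtype.ext
      show ⁅u a 0, u 0 (b + b')⁆ = ⁅u a 0, u 0 b⁆ * ⁅u a 0, u 0 b'⁆
      rw [comm_congr σ hc (y := u 0 (b + b')) (y' := u 0 b * u 0 b') rfl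
        (by rw [map_mul, hu, hu, hu, uG_mul]; simp), comm_mul_right, hcen _ (hσ2 a b'),
        mul_inv_cancel_right]
    have hl : ∀ a a' b, β (a + a') b = β a b * β a' b := by
      intro a a' b
      apply Subtype.ext
      show ⁅u (a + a') 0, u 0 b⁆ = ⁅u a 0, u 0 b⁆ * ⁅u a' 0, u 0 b⁆
      rw [comm_congr σ hc (x := u (a + a') 0) (x' := u a 0 * u a' 0 * u 0 (a' * th F m a)) (by
          rw [map_mul, map_mul, hu, hu, hu, hu, uG_mul, uG_mul]
          simp [add_self0]) rfl,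
        comm_mul_left, h1, mul_one, mul_inv_cancel, one_mul, comm_mul_left, hcen _ (hσ2 a' b),
        mul_inv_cancel_right, hcen _ (hσ2 a' b)]
    intro a b
    have := pairing_twisted_zero c hm2 hl hr (fun x p q hx => by
      obtain ⟨⟨h, hh⟩, -, -⟩ := theta_units_surj c x hx
      apply Subtype.ext
      show ⁅u (x * p) 0, u 0 (x * th F m x * q)⁆ = ⁅u p 0, u 0 q⁆
      have hx2 : (h : F) ^ 2 * th F m h = x * th F m x := by rw [← c.tits (h : F), hh, mul_comm]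
      have ep : σ (u (x * p) 0) = σ (tt h * u p 0 * (tt h)⁻¹) := by rw [hconj, mul_zero, hh]
      have eq' : σ (u 0 (x * th F m x * q)) = σ (tt h * u 0 q * (tt h)⁻¹) := by
        rw [hconj, mul_zero, hx2]
      rw [comm_congr σ hc ep eq', hconj_comm, hcen _ (hσ2 p q), mul_inv_cancel_right]) a b
    exact congrArg Subtype.val this
  let Cs : Subgroup ↥(Cfsg.Sz F m) :=
    { carrier := {g | ∃ b, g = uG c 0 b}
      one_mem' := ⟨0, (uG_zero c).symm⟩
      mul_mem' := by rintro _ _ ⟨b, rfl⟩ ⟨b', rfl⟩; exact ⟨b + b', by rw [uG_mul]; simp⟩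
      inv_mem' := by rintro _ ⟨b, rfl⟩; exact ⟨b, by rw [uG_inv]; simp⟩ }
  let P := (uSub c).comap σ
  have hcentral : ∀ x y, σ x ∈ uSub c → σ y ∈ Cs → x * y = y * x := by
    rintro x y ⟨a, b, hx⟩ ⟨b', hy⟩
    rw [← commutatorElement_eq_one_iff_mul_comm,
      comm_congr σ hc (x' := u a 0 * u 0 b) (y' := u 0 b')
        (by rw [hx, map_mul, hu, hu, uG_mul]; simp) (by rw [hy, hu]),
      comm_mul_left, h1, mul_one, mul_inv_cancel, one_mul, h2]
  have hCsU : ∀ y, σ y ∈ Cs → σ y ∈ uSub c := fun y ⟨b, hb⟩ => ⟨0, b, hb⟩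
  letI : CommGroup ↥(Cs.comap σ) :=
    { (inferInstance : Group ↥(Cs.comap σ)) with
      mul_comm := fun x y => Subtype.ext (hcentral x y (hCsU _ x.2) y.2) }
  obtain ⟨k0, hk0, hk1⟩ := c.exists_k0
  set h0 : Fˣ := Units.mk0 k0 hk0
  have hh0 : h0 ≠ 1 := fun e => hk1 (congrArg Units.val e)
  have hCconj : ∀ h (v : Γ), σ v ∈ Cs → σ (tt h * v * (tt h)⁻¹) ∈ Cs := by
    rintro h v ⟨b, hb⟩
    refine ⟨(h : F) ^ 2 * th F m h * b, ?_⟩
    rw [map_mul, map_mul, map_inv, htt, hb, tHom_conj_uG, mul_zero]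
  let φ : ↥(Cs.comap σ) →* ↥(Cs.comap σ) :=
    { toFun := fun v => ⟨tt h0 * v.1 * (tt h0)⁻¹, hCconj h0 _ v.2⟩ * v⁻¹
      map_one' := by
        rw [inv_one, mul_one]
        apply Subtype.ext
        show tt h0 * 1 * (tt h0)⁻¹ = 1
        group
      map_mul' := fun v w => by
        rw [mul_inv, mul_mul_mul_comm]
        congr 1
        apply Subtype.ext
        show tt h0 * (v.1 * w.1) * (tt h0)⁻¹ = tt h0 * v.1 * (tt h0)⁻¹ * (tt h0 * w.1 * (tt h0)⁻¹)
        group }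
  have hlam : (h0 : F) ^ 2 * th F m h0 + 1 ≠ 0 := fun e => (sq_mul_theta_ne c h0 hh0).2 (by
    have := eq_neg_of_add_eq_zero_left e; rwa [CharTwo.neg_eq] at this)
  have hφσ : ∀ (v : ↥(Cs.comap σ)) b, σ v.1 = uG c 0 b →
      σ (φ v).1 = uG c 0 (((h0 : F) ^ 2 * th F m h0 + 1) * b) := by
    intro v b hb
    show σ (tt h0 * v.1 * (tt h0)⁻¹ * (v.1)⁻¹) = _
    rw [map_mul, map_mul, map_mul, map_inv, map_inv, htt, hb, tHom_conj_uG, uG_inv, uG_mul, mul_zero]
    congr 1 <;> simp [add_mul, add_self0]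
  have hLZ : ∀ x ∈ φ.range, σ x.1 = 1 → x = 1 := by
    rintro _ ⟨v, rfl⟩ hx
    obtain ⟨b, hb⟩ := v.2
    rw [hφσ v b hb, ← uG_zero c] at hx
    have hb0 : b = 0 := (mul_eq_zero.1 (uG_inj c hx).2).resolve_left hlam
    rw [hb0, uG_zero] at hb
    apply Subtype.ext
    show tt h0 * v.1 * (tt h0)⁻¹ * (v.1)⁻¹ = 1
    rw [hcen _ hb, mul_inv_cancel_right, mul_inv_cancel]
  have hTinv : ∀ h (y : ↥(Cs.comap σ)),
      (⟨tt h * y.1 * (tt h)⁻¹, hCconj h _ y.2⟩ : ↥(Cs.comap σ)) * y⁻¹ ∈ φ.range := by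
    intro h y
    obtain ⟨b, hb⟩ := y.2
    let v : ↥(Cs.comap σ) := ⟨u 0 (b / ((h0 : F) ^ 2 * th F m h0 + 1)), ⟨_, hu _ _⟩⟩
    have hzy : σ ((φ v).1⁻¹ * y.1) = 1 := by
      rw [map_mul, map_inv, hφσ v _ (hu _ _), hb, mul_div_cancel₀ _ hlam, inv_mul_cancel]
    set w := (φ v).1⁻¹ * y.1 with hw
    let v' : ↥(Cs.comap σ) := ⟨tt h * v.1 * (tt h)⁻¹, hCconj h _ v.2⟩
    refine ⟨v' * v⁻¹, ?_⟩
    rw [map_mul, map_inv]
    apply Subtype.ext
    show (φ v').1 * (φ v).1⁻¹ = tt h * y.1 * (tt h)⁻¹ * y.1⁻¹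
    have hy : y.1 = (φ v).1 * w := by rw [hw, mul_inv_cancel_left]
    have hswap : (φ v').1 = tt h * (φ v).1 * (tt h)⁻¹ := by
      have ht : σ (tt h * tt h0) = σ (tt h0 * tt h) := by
        rw [map_mul, map_mul, htt, htt, ← map_mul, ← map_mul, mul_comm]
      have hz' : ∀ g, g * ((tt h0 * tt h)⁻¹ * (tt h * tt h0)) = ((tt h0 * tt h)⁻¹ * (tt h * tt h0)) * g :=
        hcen _ (by rw [map_mul, map_inv, ht, inv_mul_cancel])
      show tt h0 * (tt h * v.1 * (tt h)⁻¹) * (tt h0)⁻¹ * (tt h * v.1 * (tt h)⁻¹)⁻¹ =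
        tt h * (tt h0 * v.1 * (tt h0)⁻¹ * v.1⁻¹) * (tt h)⁻¹
      have e1 : tt h * tt h0 * v.1 * (tt h * tt h0)⁻¹ = tt h0 * tt h * v.1 * (tt h0 * tt h)⁻¹ := by
        set d := (tt h0 * tt h)⁻¹ * (tt h * tt h0) with hd
        have : tt h * tt h0 = tt h0 * tt h * d := by rw [hd, mul_inv_cancel_left]
        rw [this, mul_assoc (tt h0 * tt h) d, ← hz' v.1]
        group
      have l : tt h0 * (tt h * v.1 * (tt h)⁻¹) * (tt h0)⁻¹ * (tt h * v.1 * (tt h)⁻¹)⁻¹ =
          tt h0 * tt h * v.1 * (tt h0 * tt h)⁻¹ * (tt h * v.1⁻¹ * (tt h)⁻¹) := by group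
      rw [l, ← e1]; group
    rw [hswap, hy, show tt h * ((φ v).1 * w) * (tt h)⁻¹ = tt h * (φ v).1 * (tt h)⁻¹ * w by
      rw [← mul_assoc, mul_assoc _ w, ← hcen w hzy, ← mul_assoc], _root_.mul_inv_rev,
      mul_assoc (tt h * (φ v).1 * (tt h)⁻¹) w, mul_inv_cancel_left]
  have hUC : ∀ a a', σ ⁅u a 0, u a' 0⁆ ∈ Cs := by
    intro a a'
    rw [map_commutatorElement, hu, hu, commutatorElement_def, uG_inv, uG_inv, uG_mul, uG_mul, uG_mul]
    refine ⟨_, congrArg₂ (uG c) ?_ rfl⟩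
    linear_combination add_self0 a + add_self0 a'
  have hcomm3 : ∀ a a', (⟨⁅u a 0, u a' 0⁆, hUC a a'⟩ : ↥(Cs.comap σ)) ∈ φ.range := by
    let β : F → F → ↥(Cs.comap σ) ⧸ φ.range := fun a a' => QuotientGroup.mk ⟨⁅u a 0, u a' 0⁆, hUC a a'⟩
    have hl : ∀ a1 a2 a', β (a1 + a2) a' = β a1 a' * β a2 a' := by
      intro a1 a2 a'
      rw [mul_comm]
      show QuotientGroup.mk _ = QuotientGroup.mk _ * QuotientGroup.mk _
      rw [← QuotientGroup.mk_mul]
      congr 1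
      apply Subtype.ext
      show ⁅u (a1 + a2) 0, u a' 0⁆ = ⁅u a2 0, u a' 0⁆ * ⁅u a1 0, u a' 0⁆
      have hU1 : σ (u a1 0) ∈ uSub c := ⟨_, _, hu _ _⟩
      rw [comm_congr σ hc (x := u (a1 + a2) 0) (x' := u a1 0 * u a2 0 * u 0 (a2 * th F m a1)) (by
          rw [map_mul, map_mul, hu, hu, hu, hu, uG_mul, uG_mul]
          simp [add_self0]) rfl,
        comm_mul_left, commutatorElement_eq_one_iff_mul_comm.2
          (hcentral (u a' 0) (u 0 (a2 * th F m a1)) ⟨_, _, hu _ _⟩ ⟨_, hu _ _⟩).symm,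
        mul_one, mul_inv_cancel, one_mul, comm_mul_left, hcentral _ _ hU1 (hUC a2 a'),
        mul_inv_cancel_right]
    have hr : ∀ a b b', β a (b + b') = β a b * β a b' := by
      intro a b b'
      have e : ∀ p q, β q p = (β p q)⁻¹ := fun p q => by
        show QuotientGroup.mk _ = (QuotientGroup.mk _)⁻¹
        rw [← QuotientGroup.mk_inv]
        congr 1
        exact Subtype.ext (commutatorElement_inv (u p 0) (u q 0)).symm
      rw [e (b + b') a, hl, mul_inv, ← e b a, ← e b' a]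
    intro a a'
    rw [← QuotientGroup.eq_one_iff]
    refine pairing_linear_zero c hl hr (fun x p q hx => ?_) a a'
    obtain ⟨⟨h, hh⟩, -, -⟩ := theta_units_surj c x hx
    have ep : σ (u (x * p) 0) = σ (tt h * u p 0 * (tt h)⁻¹) := by rw [hconj, mul_zero, hh]
    have eq' : σ (u (x * q) 0) = σ (tt h * u q 0 * (tt h)⁻¹) := by rw [hconj, mul_zero, hh]
    show QuotientGroup.mk _ = QuotientGroup.mk _
    rw [QuotientGroup.eq]
    have hm' := φ.range.inv_mem (hTinv h ⟨⁅u p 0, u q 0⁆, hUC p q⟩)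
    rw [mul_inv, inv_inv] at hm'
    convert hm' using 2
    apply inv_inj.2
    apply Subtype.ext
    show ⁅u (x * p) 0, u (x * q) 0⁆ = tt h * ⁅u p 0, u q 0⁆ * (tt h)⁻¹
    rw [comm_congr σ hc ep eq', hconj_comm]
  have hder : ⁅P, P⁆ ≤ φ.range.map (Cs.comap σ).subtype := by
    rw [Subgroup.commutator_le]
    rintro x ⟨a, b, hx⟩ y ⟨a', b', hy⟩
    refine ⟨_, hcomm3 a a', ?_⟩
    show ⁅u a 0, u a' 0⁆ = ⁅x, y⁆
    have hc1 : ∀ v w, σ w ∈ uSub c → ⁅u 0 v, w⁆ = 1 := fun v w hw =>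
      commutatorElement_eq_one_iff_mul_comm.2 (hcentral w (u 0 v) hw ⟨_, hu _ _⟩).symm
    have hc2 : ∀ v w, σ w ∈ uSub c → ⁅w, u 0 v⁆ = 1 := fun v w hw =>
      commutatorElement_eq_one_iff_mul_comm.2 (hcentral w (u 0 v) hw ⟨_, hu _ _⟩)
    rw [comm_congr σ hc (x := x) (x' := u a 0 * u 0 b) (y := y) (y' := u a' 0 * u 0 b')
      (by rw [hx, map_mul, hu, hu, uG_mul]; simp) (by rw [hy, map_mul, hu, hu, uG_mul]; simp),
      comm_mul_left, hc1 b _ (by rw [map_mul, hu, hu]; exact mul_mem (uG_mem_uSub c _ _) (uG_mem_uSub c _ _)),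
      mul_one, mul_inv_cancel, one_mul, comm_mul_right, hc2 b' _ ⟨_, _, hu _ _⟩, mul_one,
      mul_inv_cancel, mul_one]
  obtain ⟨x, hx, rfl⟩ := hder hzd
  rw [hLZ x hx hz]; rfl

theorem stem_trivial (hm2 : 2 ≤ m) {Γ : Type*} [Group Γ] [Finite Γ] (σ : Γ →* ↥(Cfsg.Sz F m))
    (hs : Cfsg.IsStemExtension σ) : σ.ker = ⊥ := by
  classical
  obtain ⟨hσ, hcen, hcom⟩ := hs
  rw [Subgroup.eq_bot_iff_forall]
  intro z hz
  by_contra hne
  obtain ⟨p, hp, hpd⟩ := Nat.exists_prime_and_dvd (fun e => hne (orderOf_eq_one_iff.1 e) : orderOf z ≠ 1)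
  haveI : Fact p.Prime := ⟨hp⟩
  obtain ⟨P, hP⟩ : ∃ P : Sylow p ↥(Cfsg.Sz F m),
      ∀ w ∈ ⁅(P : Subgroup ↥(Cfsg.Sz F m)).comap σ, (P : Subgroup ↥(Cfsg.Sz F m)).comap σ⁆,
        σ w = 1 → w = 1 := by
    rcases eq_or_ne p 2 with rfl | hp2
    · obtain ⟨P, hP⟩ := exists_sylow c
      exact ⟨P, fun w hw hw1 => derived_sylow_meets_ker c hm2 σ hσ hcen hw1 (hP ▸ hw)⟩
    · obtain ⟨P⟩ : Nonempty (Sylow p ↥(Cfsg.Sz F m)) := inferInstance
      refine ⟨P, fun w hw _ => ?_⟩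
      haveI := cyclic_sylow_odd c hp2 P
      set H := (P : Subgroup ↥(Cfsg.Sz F m)).comap σ
      let f : ↥H →* ↥(P : Subgroup ↥(Cfsg.Sz F m)) := σ.subgroupComap _
      have hker : f.ker ≤ Subgroup.center ↥H := fun x hx => Subgroup.mem_center_iff.2 fun y =>
        Subtype.ext (Subgroup.mem_center_iff.1 (hcen (congrArg Subtype.val hx)) y)
      have hb : ⁅H, H⁆ = ⊥ := by
        rw [Subgroup.commutator_eq_bot_iff_le_centralizer]
        exact fun x hx y hy => (congrArg Subtype.val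
          (commutative_of_cyclic_center_quotient f hker ⟨x, hx⟩ ⟨y, hy⟩)).symm
      rwa [hb, Subgroup.mem_bot] at hw
  have hidx : ((P : Subgroup ↥(Cfsg.Sz F m)).comap σ).index = (P : Subgroup ↥(Cfsg.Sz F m)).index :=
    Subgroup.index_comap_of_surjective _ hσ
  have hmem := pow_index_mem_commutator ((P : Subgroup ↥(Cfsg.Sz F m)).comap σ) (hcen hz) (hcom hz)
  have h1 := hP _ hmem (by rw [map_pow, MonoidHom.mem_ker.1 hz, one_pow])
  rw [← orderOf_dvd_iff_pow_eq_one, hidx] at h1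
  exact P.not_dvd_index (hpd.trans h1)

end Cfsg.Agent.Lib.Suz
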